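import Cfsg.Agent.H90.TC.Pk

/-!
# The principal block of a self-centralizing exact prime: the constructor from a torus of prime order (S2464; helper190)
-/

set_option autoImplicit false

namespace Cfsg.Agent.H190.TC.PkOf

open Cfsg Cfsg.Agent.Characters Subgroup
open Cfsg.Agent.H65.Ore Cfsg.Agent.H843.TCM Cfsg.Agent.H90.TC
open scoped ComplexConjugate

universe u

variable {G : Type u} [Group G] [Finite G]

/-- a torus `T` of prime order `r` with `|N(T)| ≤ w r < r²`: the index of `T` in `N(T)` -/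
theorem setup_of {r w e N : ℕ} (hr : r.Prime) (hN : Nat.card G = N) (h2 : ¬ r ^ 2 ∣ N) {T : Subgroup G}
    (hT : Nat.card ↥T = r) (hC : ∀ y ∈ T, y ≠ 1 → centralizer {y} = T)
    (hw : Nat.card ↥(normalizer (T : Set G)) ≤ w * r) (hwr : w < r) (hnum : N / r % r = e) :
    ∃ P : Sylow r G, Nat.card P = r ∧ (P : Subgroup G) = T ∧ centralizer (P : Set G) = (P : Subgroup G) ∧
      (centralizer (P : Set G)).relIndex (normalizer (P : Set G)) = e ∧
      Nat.card ↥(normalizer (P : Set G)) = r * e ∧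
      ∀ y : G, orderOf y = r → ∃ z ∈ P, z ≠ 1 ∧ IsConj y z := by
  classical
  have : Fact r.Prime := ⟨hr⟩
  have h1 : r ∣ Nat.card G := by
    rw [← hT]
    exact Subgroup.card_subgroup_dvd_card T
  have h2' : ¬ r ^ 2 ∣ Nat.card G := by rw [hN]; exact h2
  have hpg : IsPGroup r ↥T := IsPGroup.of_card (n := 1) (by rw [hT, pow_one])
  obtain ⟨P, hTP⟩ := hpg.exists_le_sylow
  have hP : Nat.card P = r := SmallSimple.PrimeLocal.card_of_not_sq_dvd h1 h2' P
  have hPT : (P : Subgroup G) = T := by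
    have h3 : Nat.card ↥T = Nat.card (P : Subgroup G) := by rw [hT]; exact hP.symm
    exact (Subgroup.eq_of_le_of_card_ge hTP h3.ge).symm
  obtain ⟨x, hxT, hx1⟩ : ∃ x ∈ T, x ≠ 1 := by
    by_contra hcon
    push Not at hcon
    have h3 : T = ⊥ := (Subgroup.eq_bot_iff_forall _).2 hcon
    rw [h3, Subgroup.card_bot] at hT
    exact hr.one_lt.ne hT
  have hCP : centralizer (P : Set G) = (P : Subgroup G) := by
    rw [show (P : Set G) = (T : Set G) from congrArg (fun H : Subgroup G => (H : Set G)) hPT, hPT]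
    refine le_antisymm ?_ ?_
    · refine le_trans (centralizer_le (t := (T : Set G)) (s := {x}) (Set.singleton_subset_iff.2 hxT)) ?_
      exact (hC x hxT hx1).le
    · intro y hy
      rw [mem_centralizer_iff]
      intro z hz
      by_cases hz1 : z = 1
      · rw [hz1, one_mul, mul_one]
      · have h3 : y ∈ centralizer ({z} : Set G) := by rw [hC z hz hz1]; exact hy
        exact (mem_centralizer_singleton_iff.1 h3).symm
  have hle : centralizer (P : Set G) ≤ normalizer (P : Set G) := centralizer_le_normalizer _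
  have hcardC : Nat.card ↥(centralizer (P : Set G)) = r := by rw [hCP]; exact hP
  have hrel : Nat.card ↥(normalizer (P : Set G)) =
      r * (centralizer (P : Set G)).relIndex (normalizer (P : Set G)) := by
    have h3 := Subgroup.index_mul_card ((centralizer (P : Set G)).subgroupOf (normalizer (P : Set G)))
    rw [Nat.card_congr (Subgroup.subgroupOfEquivOfLe hle).toEquiv, hcardC] at h3
    rw [← h3, Subgroup.relIndex, mul_comm]
  have hw' : Nat.card ↥(normalizer (P : Set G)) ≤ w * r := by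
    rw [show (P : Set G) = (T : Set G) from congrArg (fun H : Subgroup G => (H : Set G)) hPT]
    exact hw
  generalize hi : (centralizer (P : Set G)).relIndex (normalizer (P : Set G)) = i at hrel ⊢
  have hiw : i ≤ w := by
    rw [hrel, mul_comm] at hw'
    exact Nat.le_of_mul_le_mul_right hw' hr.pos
  have hsyl := card_sylow_modEq_one r G
  have hidx : Nat.card (Sylow r G) * Nat.card ↥(normalizer (P : Set G)) = N := by
    rw [Sylow.card_eq_index_normalizer P, ← hN]
    exact Subgroup.index_mul_card _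
  have hie : i = e := by
    rw [hrel] at hidx
    have h3 : N / r = Nat.card (Sylow r G) * i := by
      rw [← hidx, show Nat.card (Sylow r G) * (r * i) = r * (Nat.card (Sylow r G) * i) by ring,
        Nat.mul_div_cancel_left _ hr.pos]
    have h4 : Nat.card (Sylow r G) * i ≡ 1 * i [MOD r] := Nat.ModEq.mul_right i hsyl
    rw [one_mul] at h4
    have h5 : Nat.card (Sylow r G) * i % r = i % r := h4
    rw [h3, h5, Nat.mod_eq_of_lt (by omega)] at hnum
    exact hnum
  rw [hie] at hrel hi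
  refine ⟨P, hP, hPT, hCP, hi, hrel, fun y hy => ?_⟩
  have hyg : IsPGroup r ↥(zpowers y) := IsPGroup.of_card (n := 1) (by rw [Nat.card_zpowers, hy, pow_one])
  obtain ⟨Q, hQ⟩ := hyg.exists_le_sylow
  obtain ⟨g, hg⟩ := MulAction.exists_smul_eq G Q P
  refine ⟨g * y * g⁻¹, ?_, ?_, isConj_iff.2 ⟨g, rfl⟩⟩
  · rw [← hg]
    exact ⟨y, hQ (mem_zpowers y), rfl⟩
  · intro h
    have h3 : y = 1 := by
      have := congrArg (fun w => g⁻¹ * w * g) h
      simpa [mul_assoc] using this
    rw [h3, orderOf_one] at hy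
    exact hr.one_lt.ne hy

/-- **The constructor.** -/
theorem pk_of {p : ℕ} (hp : p.Prime) (hp2 : p ≠ 2) (P : Sylow p G) (hP : Nat.card P = p)
    (hC : centralizer (P : Set G) = (P : Subgroup G)) {e t : ℕ}
    (hrel : (centralizer (P : Set G)).relIndex (normalizer (P : Set G)) = e) (ht : e * t = p - 1) (he0 : 0 < e)
    (hconj : ∀ y : G, orderOf y = p → ∃ z ∈ P, z ≠ 1 ∧ IsConj y z) :
    ∃ (NE X : Finset (IrrCharacter G)) (ε : IrrCharacter G → ℤ) (d : ℤ), Pk G p e t NE X ε d := by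
  classical
  have : Fact p.Prime := ⟨hp⟩
  have hp1 := hp.two_le
  obtain ⟨NE, X, ε, d, T, hdis, hNE, hX, hε, hd, hone, hv, hvX, hXd, hreg, hz⟩ :=
    SmallSimple.TheoremBCor.theoremB_selfCent p hp2 P hP hC e t hrel ht
  have hmove : ∀ y : G, orderOf y = p → ∃ z ∈ P, z ≠ 1 ∧ ∀ χ : IrrCharacter G, (χ : G → ℂ) y = (χ : G → ℂ) z := by
    intro y hy
    obtain ⟨z, hz, hz1, hyz⟩ := hconj y hy
    refine ⟨z, hz, hz1, fun χ => ?_⟩
    obtain ⟨g, rfl⟩ := isConj_iff.1 hyz
    exact (Core.isIrr_isClassFunction χ.2 y g).symm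
  have hep : e < p := by
    have h1 : e ≤ p - 1 := Nat.le_of_dvd (by omega) ⟨t, ht.symm⟩
    omega
  have hpn : ∀ {n : ℕ} {a m : ℤ}, (n : ℂ) = ((a + p * m : ℤ) : ℂ) → (p : ℤ) ∣ (n : ℤ) - a := by
    intro n a m h
    have h2 : (n : ℤ) = a + p * m := by exact_mod_cast h
    exact ⟨m, by rw [h2]; ring⟩
  have dNE : ∀ χ ∈ NE, (p : ℤ) ∣ (charDegree (χ : G → ℂ) : ℤ) - ε χ := by
    intro χ hχ
    obtain ⟨m, hm⟩ := SmallSimple.TheoremBCor.degree_nonexc (P := (P : Subgroup G)) hP
      (Core.isIrr_isCharacter χ.2) (ε := ε χ) (fun y hy hy1 => hv χ hχ y hy hy1)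
    rw [cast_deg] at hm
    exact hpn (a := ε χ) (m := (m : ℤ) - ε χ) (by push_cast; exact_mod_cast hm)
  have dX : ∀ χ ∈ X, (p : ℤ) ∣ (charDegree (χ : G → ℂ) : ℤ) - d * e := by
    intro χ hχ
    obtain ⟨hSc, hS1, hSv⟩ := hvX χ hχ
    obtain ⟨m, hm⟩ := SmallSimple.TheoremBCor.degree_exc (P := (P : Subgroup G)) hP
      (Core.isIrr_isCharacter χ.2) (d := d) (S := T χ) hS1 hSv
    rw [cast_deg, hSc] at hm
    exact hpn (a := d * e) (m := m) (by push_cast; exact_mod_cast hm)
  refine ⟨NE, X, ε, d, ⟨hdis, hNE, ?_, ?_, ?_, hε, hd, ?_, hreg, ?_, ?_⟩, hX, dNE, dX,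
    fun χ h1 h2 => (hz χ h1 h2).2, fun y hy => ?_⟩
  · rw [← Finset.card_pos, hX]
    rcases Nat.eq_zero_or_pos t with h | h
    · rw [h, mul_zero] at ht
      omega
    · exact h
  · obtain ⟨χ, hχ, hχ1, -⟩ := hone
    have : χ = one1 G := Subtype.ext hχ1
    rwa [← this]
  · obtain ⟨χ, hχ, hχ1, h⟩ := hone
    have : χ = one1 G := Subtype.ext hχ1
    rwa [← this]
  · intro χ hχ y hy
    obtain ⟨z, hz, hz1, h⟩ := hmove y hy
    rw [h χ, hv χ hχ z hz hz1]
  · intro χ h1 h2 y hy
    obtain ⟨z, hzP, hz1, h⟩ := hmove y hy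
    rw [h χ]
    exact (hz χ h1 h2).1 z hzP hz1
  · intro χ hχ
    rcases hχ with hχ | hχ
    · intro hdvd
      have h4 : (p : ℤ) ∣ (charDegree (χ : G → ℂ) : ℤ) := by exact_mod_cast hdvd
      have h5 : (p : ℤ) ∣ ε χ := by
        have := dvd_sub h4 (dNE χ hχ)
        rwa [sub_sub_cancel] at this
      have h6 : (p : ℤ) ∣ 1 := by
        rcases hε χ hχ with h | h
        · rwa [h] at h5
        · rw [h] at h5; exact (Int.dvd_neg.1 h5)
      have h7 : p ∣ 1 := by exact_mod_cast h6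
      exact hp.one_lt.ne' (Nat.dvd_one.1 h7)
    · intro hdvd
      have h4 : (p : ℤ) ∣ (charDegree (χ : G → ℂ) : ℤ) := by exact_mod_cast hdvd
      have h5 : (p : ℤ) ∣ d * e := by
        have := dvd_sub h4 (dX χ hχ)
        rwa [sub_sub_cancel] at this
      have h6 : (p : ℤ) ∣ e := by
        rcases hd with h | h
        · rwa [h, one_mul] at h5
        · rw [h, neg_one_mul] at h5; exact (Int.dvd_neg.1 h5)
      have h7 : p ∣ e := by exact_mod_cast h6
      have := Nat.le_of_dvd he0 h7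
      omega
  · obtain ⟨z, hz, hz1, hyz⟩ := hconj y hy
    have h1 : centralizer ({z} : Set G) = (P : Subgroup G) :=
      (Blocks.CyclicOrtho.centralizer_eq P hP hz hz1).trans hC
    rw [card_cent_conj hyz, h1]
    exact hP

/-- an element of order `p` is conjugate to its inverse if `e` is even -/
theorem conj_inv_of {p : ℕ} (hp : p.Prime) (hp2 : p ≠ 2) (P : Sylow p G) (hP : Nat.card P = p)
    (hC : centralizer (P : Set G) = (P : Subgroup G)) {e : ℕ} (hNP : Nat.card ↥(normalizer (P : Set G)) = p * e)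
    (he : 2 ∣ e) (hconj : ∀ y : G, orderOf y = p → ∃ z ∈ P, z ≠ 1 ∧ IsConj y z) {x : G} (hx : orderOf x = p) :
    IsConj x x⁻¹ := by
  classical
  have : Fact p.Prime := ⟨hp⟩
  obtain ⟨z, hz, hz1, hxz⟩ := hconj x hx
  have hPC : ∀ y ∈ (P : Subgroup G), y ≠ 1 → centralizer ({y} : Set G) = (P : Subgroup G) := fun y hy hy1 =>
    (Blocks.CyclicOrtho.centralizer_eq P hP hy hy1).trans hC
  have h2 : 2 ∣ Nat.card (normalizer (P : Set G)) := by
    rw [hNP]
    exact he.mul_left p
  have : Fact (Nat.Prime 2) := ⟨Nat.prime_two⟩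
  obtain ⟨⟨n, hn⟩, hn2⟩ := exists_prime_orderOf_dvd_card' (G := normalizer (P : Set G)) 2 h2
  rw [Subgroup.orderOf_mk] at hn2
  have hnn : n * n = 1 := by
    rw [← pow_two, ← hn2]
    exact pow_orderOf_eq_one n
  have hni : n⁻¹ = n := inv_eq_of_mul_eq_one_right hnn
  have hw : n * z * n⁻¹ ∈ (P : Subgroup G) := (mem_normalizer_iff.1 hn z).1 hz
  have hcomm : z * (n * z * n⁻¹) = (n * z * n⁻¹) * z := by
    have h3 : n * z * n⁻¹ ∈ centralizer ({z} : Set G) := by rw [hPC z hz hz1]; exact hw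
    exact (mem_centralizer_singleton_iff.1 h3).symm
  have hy : z * (n * z * n⁻¹) ∈ (P : Subgroup G) := mul_mem hz hw
  have hny : n ∈ centralizer ({z * (n * z * n⁻¹)} : Set G) := by
    rw [mem_centralizer_singleton_iff]
    calc n * (z * (n * z * n⁻¹)) = (n * z * n⁻¹) * (n * n) * z * n⁻¹ := by group
      _ = (n * z * n⁻¹) * z * n := by rw [hnn, hni]; group
      _ = z * (n * z * n⁻¹) * n := by rw [← hcomm]
  have h1 : z * (n * z * n⁻¹) = 1 := by
    by_contra hne
    rw [hPC _ hy hne] at hny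
    have h3 : orderOf n ∣ p := by
      rw [← hP]
      exact Subgroup.orderOf_dvd_natCard _ hny
    rw [hn2] at h3
    exact hp2 ((Nat.prime_dvd_prime_iff_eq Nat.prime_two hp).1 h3).symm
  have hzz : IsConj z z⁻¹ := isConj_iff.2 ⟨n, (inv_eq_of_mul_eq_one_right h1).symm⟩
  obtain ⟨c, hc'⟩ := isConj_iff.1 hxz
  have hx' : IsConj z⁻¹ x⁻¹ := isConj_iff.2 ⟨c⁻¹, by rw [← hc']; group⟩
  exact (hxz.trans hzz).trans hx'

end Cfsg.Agent.H190.TC.PkOf
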