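import Cfsg.Agent.H190.TC.PkOf
import Cfsg.Agent.H190.TC.Q17Sieve
import Cfsg.Agent.H90.TC.D43Char

/-!
# Products of two classes of `³D₄(17)`: the characters (after helper90's D43Char; helper190)
-/

set_option autoImplicit false

namespace Cfsg.Agent.H190.TC.Q17

open Cfsg Cfsg.Agent.Characters Subgroup
open Cfsg.Agent.H65.Ore Cfsg.Agent.H843.TCM Cfsg.Agent.H90.TC
open Cfsg.Agent.H90.TC.D43 (int_of_unique deg_dvd sumX_sq)
open scoped ComplexConjugate

universe u

variable {G : Type u} [Group G] [Finite G]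

/-- the arithmetical conditions on the values `a`, `c` of the characters of degree 59318078274, 59269803136 and the size `K` of the
class of an element of order divisible by 17 which is not a product of two conjugates of `x` -/
structure Bad (K : ℕ) (a c : ℤ) : Prop where
  dvd : K ∣ 28253328918503724754683541171725312
  h1 : (59318078274 : ℤ) ∣ K * a
  h2 : (59269803136 : ℤ) ∣ K * c
  h3 : (582622188954624 : ℤ) ∣ K * (1 - a + c)
  hs : (K : ℤ) * (1 + a ^ 2 + c ^ 2 + 20808 * (1 - a + c) ^ 2) ≤ 28253328918503724754683541171725312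
  he : 5493 * c - 4333 * a = -34390479914733

/-- the principal 83233-block of a group of the order of `³D₄(17)` -/
structure Blk (G : Type u) [Group G] (NE X : Finset (IrrCharacter G)) (ε : IrrCharacter G → ℤ) (d : ℤ)
    (st a c Θ : IrrCharacter G) : Prop where
  pk : Pk G 83233 4 20808 NE X ε d
  mem : ∀ χ : IrrCharacter G, χ ∈ NE ↔ χ = one1 G ∨ χ = st ∨ χ = a ∨ χ = c
  n12 : one1 G ≠ st
  n13 : one1 G ≠ a
  n14 : one1 G ≠ c
  n23 : st ≠ a
  n24 : st ≠ c
  n34 : a ≠ c
  dst : charDegree (st : G → ℂ) = 582622237229761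
  da : charDegree (a : G → ℂ) = 59318078274
  dc : charDegree (c : G → ℂ) = 59269803136
  hΘ : Θ ∈ X
  dΘ : charDegree (Θ : G → ℂ) = 582622188954624

/-- **The degrees.** -/
theorem exists_blk (hN : Nat.card G = 28253328918503724754683541171725312)
    (hpk : ∃ (NE X : Finset (IrrCharacter G)) (ε : IrrCharacter G → ℤ) (d : ℤ), Pk G 83233 4 20808 NE X ε d)
    (hst : ∃ χ : IrrCharacter G, charDegree (χ : G → ℂ) = 582622237229761)
    (h729 : ∀ χ : IrrCharacter G, charDegree (χ : G → ℂ) ≠ 24137569) :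
    ∃ (NE X : Finset (IrrCharacter G)) (ε : IrrCharacter G → ℤ) (d : ℤ) (st a c Θ : IrrCharacter G),
      Blk G NE X ε d st a c Θ := by
  classical
  have hp : Nat.Prime 83233 := by norm_num
  obtain ⟨NE, X, ε, d, h⟩ := hpk
  obtain ⟨st, hst⟩ := hst
  obtain ⟨Θ, hΘ⟩ := h.pack.ne_X
  have h1o : ¬ 83233 ∣ orderOf (1 : G) := by rw [orderOf_one]; norm_num
  have hd1 : charDegree ((one1 G : IrrCharacter G) : G → ℂ) = 1 := by
    have := cast_deg (one1 G)
    rw [one1_apply] at this
    exact_mod_cast this.symm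
  have hstN : st ∈ NE := by
    by_contra hno
    by_cases hX : st ∈ X
    · have h1 := h.degX st hX
      rw [hst] at h1
      rcases h.pack.d_eps with h2 | h2 <;> rw [h2] at h1 <;> norm_num at h1
    · have h1 := h.offdeg st hno hX
      rw [hst] at h1
      norm_num at h1
  have hst1 : st ≠ one1 G := by
    rintro rfl
    rw [hd1] at hst
    norm_num at hst
  have c4 := h.pack.cardNE
  have c3 : (NE.erase (one1 G)).card = 3 := by rw [Finset.card_erase_of_mem h.pack.one_mem, c4]
  have hst2 : st ∈ NE.erase (one1 G) := Finset.mem_erase.2 ⟨hst1, hstN⟩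
  have c2 : ((NE.erase (one1 G)).erase st).card = 2 := by rw [Finset.card_erase_of_mem hst2, c3]
  obtain ⟨a, b, hab, he⟩ := Finset.card_eq_two.1 c2
  have ma : a ∈ (NE.erase (one1 G)).erase st := by rw [he]; exact Finset.mem_insert_self _ _
  have mb : b ∈ (NE.erase (one1 G)).erase st := by
    rw [he]; exact Finset.mem_insert_of_mem (Finset.mem_singleton_self _)
  obtain ⟨ha1, ha2⟩ := Finset.mem_erase.1 ma
  obtain ⟨hb1, hb2⟩ := Finset.mem_erase.1 mb
  obtain ⟨ha3, ha4⟩ := Finset.mem_erase.1 ha2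
  obtain ⟨hb3, hb4⟩ := Finset.mem_erase.1 hb2
  have hNE : NE = {one1 G, st, a, b} := by
    rw [← Finset.insert_erase h.pack.one_mem, ← Finset.insert_erase hst2, he]
  have n1 : one1 G ∉ ({st, a, b} : Finset (IrrCharacter G)) := by
    simp only [Finset.mem_insert, Finset.mem_singleton, not_or]
    exact ⟨hst1.symm, ha3.symm, hb3.symm⟩
  have n2 : st ∉ ({a, b} : Finset (IrrCharacter G)) := by
    simp only [Finset.mem_insert, Finset.mem_singleton, not_or]
    exact ⟨ha1.symm, hb1.symm⟩
  have n3 : a ∉ ({b} : Finset (IrrCharacter G)) := by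
    rw [Finset.mem_singleton]
    exact hab
  have hNsum : ∀ f : IrrCharacter G → ℂ, ∑ χ ∈ NE, f χ = f (one1 G) + (f st + (f a + f b)) := by
    intro f
    rw [hNE, Finset.sum_insert n1, Finset.sum_insert n2, Finset.sum_insert n3, Finset.sum_singleton]
  have hNsumR : ∀ f : IrrCharacter G → ℝ, ∑ χ ∈ NE, f χ = f (one1 G) + (f st + (f a + f b)) := by
    intro f
    rw [hNE, Finset.sum_insert n1, Finset.sum_insert n2, Finset.sum_insert n3, Finset.sum_singleton]
  have est : ε st = 1 := by
    have h1 := h.degNE st hstN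
    rw [hst] at h1
    rcases h.pack.eps st hstN with h2 | h2
    · exact h2
    · rw [h2] at h1
      norm_num at h1
  -- the relation of the degrees
  have hrel : 1 + 582622237229761 + ε a * (charDegree (a : G → ℂ) : ℤ) + ε b * (charDegree (b : G → ℂ) : ℤ) =
      d * (charDegree (Θ : G → ℂ) : ℤ) := by
    have h1 := h.pack.reg Θ hΘ 1 h1o
    rw [hNsum] at h1
    simp only [cast_deg] at h1
    rw [h.pack.one_eps, est, hd1, hst] at h1
    have h2 : ((1 + 582622237229761 + ε a * (charDegree (a : G → ℂ) : ℤ) + ε b * (charDegree (b : G → ℂ) : ℤ) : ℤ) : ℂ) =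
        ((d * (charDegree (Θ : G → ℂ) : ℤ) : ℤ) : ℂ) := by
      push_cast
      rw [← h1]
      push_cast
      ring
    exact_mod_cast h2
  -- the squares
  have hsq : 1 + (582622237229761 ^ 2 + (charDegree (a : G → ℂ) ^ 2 + charDegree (b : G → ℂ) ^ 2)) +
      20808 * charDegree (Θ : G → ℂ) ^ 2 ≤ 28253328918503724754683541171725312 := by
    have h1 := h.sumG h1o hΘ
    rw [hNsumR] at h1
    have h2 : ∀ χ : IrrCharacter G, Complex.normSq ((χ : G → ℂ) 1) = (charDegree (χ : G → ℂ) : ℝ) ^ 2 := by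
      intro χ
      rw [cast_deg, Complex.normSq_natCast, pow_two]
    have h3 : Nat.card (centralizer ({(1 : G)} : Set G)) = 28253328918503724754683541171725312 := by
      rw [show centralizer ({(1 : G)} : Set G) = ⊤ from by
        ext w
        simp [mem_centralizer_singleton_iff], Subgroup.card_top, hN]
    rw [h3, h2, h2, h2, h2, h2, hd1, hst] at h1
    have h4 : (((1 + (582622237229761 ^ 2 + (charDegree (a : G → ℂ) ^ 2 + charDegree (b : G → ℂ) ^ 2)) +
        20808 * charDegree (Θ : G → ℂ) ^ 2 : ℕ)) : ℝ) ≤ ((28253328918503724754683541171725312 : ℕ) : ℝ) := by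
      push_cast at h1 ⊢
      nlinarith [h1]
    exact_mod_cast h4
  have hdv : ∀ χ : IrrCharacter G, charDegree (χ : G → ℂ) ∣ 28253328918503724754683541171725312 := fun χ => by
    rw [← hN]; exact Cfsg.Agent.Blocks.Knorr.charDegree_dvd χ.2
  obtain ⟨hD, hcase⟩ := sieve (h.pack.eps a ha4) (h.pack.eps b hb4) h.pack.d_eps (hdv a) (hdv b) (hdv Θ)
    (h.degNE a ha4) (h.degNE b hb4) hrel (by nlinarith [hsq]) (by nlinarith [hsq]) (by nlinarith [hsq])
  rcases hcase with ⟨h1, h2⟩ | ⟨h1, h2⟩ | ⟨h1, h2⟩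
  · refine ⟨NE, X, ε, d, st, b, a, Θ, h, fun χ => ?_, hst1.symm, hb3.symm, ha3.symm, hb1.symm, ha1.symm, hab.symm,
      hst, h2, h1, hΘ, hD⟩
    rw [hNE]
    simp only [Finset.mem_insert, Finset.mem_singleton]
    exact or_congr Iff.rfl (or_congr Iff.rfl or_comm)
  · refine ⟨NE, X, ε, d, st, a, b, Θ, h, fun χ => ?_, hst1.symm, ha3.symm, hb3.symm, ha1.symm, hb1.symm, hab,
      hst, h1, h2, hΘ, hD⟩
    rw [hNE]
    simp only [Finset.mem_insert, Finset.mem_singleton]
  · exact absurd h1 (h729 a)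

/-- **The alternative.** -/
theorem prd_or_bad (hN : Nat.card G = 28253328918503724754683541171725312)
    (hpk : ∃ (NE X : Finset (IrrCharacter G)) (ε : IrrCharacter G → ℤ) (d : ℤ), Pk G 83233 4 20808 NE X ε d) {x : G}
    (hreal : IsConj x x⁻¹) (hx : orderOf x = 83233) (hc : Nat.card (centralizer ({x} : Set G)) = 83233)
    (hst : ∃ χ : IrrCharacter G, charDegree (χ : G → ℂ) = 582622237229761)
    (h729 : ∀ χ : IrrCharacter G, charDegree (χ : G → ℂ) ≠ 24137569) {g : G} (hg : 17 ∣ orderOf g) :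
    Prd x x g ∨ ∃ a c : ℤ, Bad (centralizer ({g} : Set G)).index a c := by
  classical
  have hp : Nat.Prime 83233 := by norm_num
  have hfin : Finite (IrrCharacter G) := Core.finite_irr
  have := Fintype.ofFinite (IrrCharacter G)
  have f3 : Fact (Nat.Prime 17) := ⟨by norm_num⟩
  obtain ⟨NE, X, ε, d, st, a, c, Θ, B⟩ := exists_blk hN hpk hst h729
  have h := B.pk
  -- `g` has order prime to 83233
  have hg73 : ¬ 83233 ∣ orderOf g := by
    intro h73
    obtain ⟨m, hm⟩ := h73
    obtain ⟨k, hk⟩ := hg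
    have hm0 : m ≠ 0 := by
      rintro rfl
      exact (orderOf_pos g).ne' (by rw [hm, mul_zero])
    have hk0 : k ≠ 0 := by
      rintro rfl
      exact (orderOf_pos g).ne' (by rw [hk, mul_zero])
    have h1 : orderOf (g ^ m) = 83233 := by
      rw [orderOf_pow, hm, Nat.gcd_eq_right (dvd_mul_left m 83233), Nat.mul_div_cancel _ (Nat.pos_of_ne_zero hm0)]
    have h2 : orderOf (g ^ k) = 17 := by
      rw [orderOf_pow, hk, Nat.gcd_eq_right (dvd_mul_left k 17), Nat.mul_div_cancel _ (Nat.pos_of_ne_zero hk0)]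
    have h3 : g ^ k ∈ centralizer ({g ^ m} : Set G) := by
      rw [mem_centralizer_singleton_iff]
      exact (Commute.pow_pow_self g k m).eq
    have h4 := orderOf_dvd_natCard (⟨g ^ k, h3⟩ : centralizer ({g ^ m} : Set G))
    rw [Subgroup.orderOf_mk, h2, h.cent _ h1] at h4
    norm_num at h4
  have hdst0 : (st : G → ℂ) g = 0 := by
    refine H713.irr_zero_of_singular (p := 17) ?_ hg
    rw [B.dst, hN]
    have e1 : (582622237229761 : ℕ) = 17 ^ 12 := by norm_num
    have e2 : (28253328918503724754683541171725312 : ℕ) = 17 ^ 12 * 48493392653260219392 := by norm_num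
    rw [e1, e2, Nat.factorization_mul (by norm_num) (by norm_num), Nat.Prime.factorization_pow (by norm_num : Nat.Prime 17),
      Finsupp.add_apply, Finsupp.single_eq_same, Nat.factorization_eq_zero_of_not_dvd (n := 48493392653260219392) (p := 17)
        (by norm_num)]
  have NE_eq : NE = {one1 G, st, a, c} := by
    ext χ
    rw [B.mem]
    simp only [Finset.mem_insert, Finset.mem_singleton]
  have n1 : one1 G ∉ ({st, a, c} : Finset (IrrCharacter G)) := by
    simp only [Finset.mem_insert, Finset.mem_singleton, not_or]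
    exact ⟨B.n12, B.n13, B.n14⟩
  have n2 : st ∉ ({a, c} : Finset (IrrCharacter G)) := by
    simp only [Finset.mem_insert, Finset.mem_singleton, not_or]
    exact ⟨B.n23, B.n24⟩
  have n3 : a ∉ ({c} : Finset (IrrCharacter G)) := by
    rw [Finset.mem_singleton]
    exact B.n34
  have hNsum : ∀ f : IrrCharacter G → ℂ, ∑ χ ∈ NE, f χ = f (one1 G) + (f st + (f a + f c)) := by
    intro f
    rw [NE_eq, Finset.sum_insert n1, Finset.sum_insert n2, Finset.sum_insert n3, Finset.sum_singleton]
  have hNsumR : ∀ f : IrrCharacter G → ℝ, ∑ χ ∈ NE, f χ = f (one1 G) + (f st + (f a + f c)) := by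
    intro f
    rw [NE_eq, Finset.sum_insert n1, Finset.sum_insert n2, Finset.sum_insert n3, Finset.sum_singleton]
  have hd1 : charDegree ((one1 G : IrrCharacter G) : G → ℂ) = 1 := by
    have := cast_deg (one1 G)
    rw [one1_apply] at this
    exact_mod_cast this.symm
  have mst : st ∈ NE := by rw [NE_eq]; simp
  have ma : a ∈ NE := by rw [NE_eq]; simp
  have mc : c ∈ NE := by rw [NE_eq]; simp
  -- the signs
  have esta : ∀ χ ∈ NE, ∀ n : ℤ, (n = 1 ∨ n = -1) → (83233 : ℤ) ∣ (charDegree (χ : G → ℂ) : ℤ) - n → ε χ = n := by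
    intro χ hχ n hn h1
    have h2 := h.degNE χ hχ
    have h3 := dvd_sub h2 h1
    rcases h.pack.eps χ hχ with h4 | h4 <;> rcases hn with h5 | h5 <;> rw [h4, h5] at h3 ⊢ <;> omega
  have est : ε st = 1 := esta st mst 1 (Or.inl rfl) (by rw [B.dst]; norm_num)
  have ea : ε a = -1 := esta a ma (-1) (Or.inr rfl) (by rw [B.da]; norm_num)
  have ec : ε c = 1 := esta c mc 1 (Or.inl rfl) (by rw [B.dc]; norm_num)
  have ed : d = 1 := by
    have h1o : ¬ 83233 ∣ orderOf (1 : G) := by rw [orderOf_one]; norm_num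
    have h1 := h.pack.reg Θ B.hΘ 1 h1o
    rw [hNsum] at h1
    simp only [cast_deg] at h1
    rw [h.pack.one_eps, est, ea, ec, hd1, B.dst, B.da, B.dc, B.dΘ] at h1
    rcases h.pack.d_eps with h2 | h2
    · exact h2
    · rw [h2] at h1
      norm_num at h1
  -- uniqueness of the degrees
  have uniq : ∀ ψ : IrrCharacter G, ¬ 83233 ∣ charDegree (ψ : G → ℂ) → ψ ∈ NE ∨ ψ ∈ X := by
    intro ψ hψ
    by_contra hno
    push Not at hno
    exact hψ (h.offdeg ψ hno.1 hno.2)
  have degX : ∀ ψ ∈ X, charDegree (ψ : G → ℂ) = 582622188954624 := by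
    intro ψ hψ
    have h1o : ¬ 83233 ∣ orderOf (1 : G) := by rw [orderOf_one]; norm_num
    have h1 := h.eqX hψ B.hΘ h1o
    rw [cast_deg, cast_deg, B.dΘ] at h1
    exact_mod_cast h1
  have ua : ∀ ψ : IrrCharacter G, charDegree (ψ : G → ℂ) = charDegree (a : G → ℂ) → ψ = a := by
    intro ψ hψ
    rw [B.da] at hψ
    rcases uniq ψ (by rw [hψ]; norm_num) with h1 | h1
    · rw [B.mem] at h1
      rcases h1 with rfl | rfl | h1 | rfl
      · rw [hd1] at hψ; norm_num at hψ
      · rw [B.dst] at hψ; norm_num at hψ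
      · exact h1
      · rw [B.dc] at hψ; norm_num at hψ
    · rw [degX ψ h1] at hψ; norm_num at hψ
  have uc : ∀ ψ : IrrCharacter G, charDegree (ψ : G → ℂ) = charDegree (c : G → ℂ) → ψ = c := by
    intro ψ hψ
    rw [B.dc] at hψ
    rcases uniq ψ (by rw [hψ]; norm_num) with h1 | h1
    · rw [B.mem] at h1
      rcases h1 with rfl | rfl | rfl | h1
      · rw [hd1] at hψ; norm_num at hψ
      · rw [B.dst] at hψ; norm_num at hψ
      · rw [B.da] at hψ; norm_num at hψ
      · exact h1
    · rw [degX ψ h1] at hψ; norm_num at hψ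
  obtain ⟨va, hva⟩ := int_of_unique ua g
  obtain ⟨vc, hvc⟩ := int_of_unique uc g
  have hvΘ : (Θ : G → ℂ) g = ((1 - va + vc : ℤ) : ℂ) := by
    have h1 := h.pack.reg Θ B.hΘ g hg73
    rw [hNsum, h.pack.one_eps, est, ea, ec, ed, hdst0, hva, hvc, one1_apply] at h1
    push_cast at h1 ⊢
    linear_combination -h1
  by_cases hprd : Prd x x g
  · exact Or.inl hprd
  right
  have hT : ∑ χ : IrrCharacter G, (χ : G → ℂ) x * (χ : G → ℂ) x * conj ((χ : G → ℂ) g) / (χ : G → ℂ) 1 = 0 := by
    by_contra hne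
    exact hprd (prd_of_ne_zero hne)
  rw [h.sum_eq hp hx hg73 B.hΘ, sumX_sq h hx hc hreal, hNsum] at hT
  simp only [cast_deg] at hT
  rw [hd1, B.dst, B.da, B.dc, B.dΘ, hdst0, hva, hvc, hvΘ, one1_apply] at hT
  have he : 5493 * vc - 4333 * va = -34390479914733 := by
    have h1 : ((5493 * vc - 4333 * va : ℤ) : ℂ) = ((-34390479914733 : ℤ) : ℂ) := by
      simp only [map_one, map_zero, map_intCast] at hT
      push_cast at hT ⊢
      linear_combination (2862422814334067712 / 83233 : ℂ) * hT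
    exact_mod_cast h1
  refine ⟨va, vc, ?_, ?_, ?_, ?_, ?_, he⟩
  · rw [← hN]; exact Subgroup.index_dvd_card _
  · have := deg_dvd hva
    rw [B.da] at this
    exact this
  · have := deg_dvd hvc
    rw [B.dc] at this
    exact this
  · have := deg_dvd hvΘ
    rw [B.dΘ] at this
    exact this
  · have h1 := h.sumG hg73 B.hΘ
    rw [hNsumR, one1_apply, hdst0, hva, hvc, hvΘ] at h1
    have h2 : ∀ n : ℤ, Complex.normSq (n : ℂ) = (n : ℝ) ^ 2 := fun n => by
      rw [show (n : ℂ) = ((n : ℝ) : ℂ) from by push_cast; rfl, Complex.normSq_ofReal, pow_two]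
    rw [h2, h2, h2, map_one, map_zero] at h1
    have h3 : (1 + va ^ 2 + vc ^ 2 + 20808 * (1 - va + vc) ^ 2 : ℤ) ≤ (Nat.card (centralizer ({g} : Set G)) : ℤ) := by
      have h4 : (((1 + va ^ 2 + vc ^ 2 + 20808 * (1 - va + vc) ^ 2 : ℤ)) : ℝ) ≤
          ((Nat.card (centralizer ({g} : Set G)) : ℤ) : ℝ) := by
        push_cast at h1 ⊢
        nlinarith [h1]
      exact_mod_cast h4
    have h5 : ((centralizer ({g} : Set G)).index : ℤ) * (Nat.card (centralizer ({g} : Set G)) : ℤ) =
        28253328918503724754683541171725312 := by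
      have := (centralizer ({g} : Set G)).index_mul_card
      rw [hN] at this
      exact_mod_cast this
    calc ((centralizer ({g} : Set G)).index : ℤ) * (1 + va ^ 2 + vc ^ 2 + 20808 * (1 - va + vc) ^ 2) ≤
        ((centralizer ({g} : Set G)).index : ℤ) * (Nat.card (centralizer ({g} : Set G)) : ℤ) :=
          mul_le_mul_of_nonneg_left h3 (by positivity)
      _ = 28253328918503724754683541171725312 := h5

end Cfsg.Agent.H190.TC.Q17
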